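import Mathlib
import Cfsg.Agent.Lib.Helper94.OMG.Defs
import Cfsg.Agent.Lib.Helper14.Forms
import Cfsg.Agent.Lib.Helper76.Siegel.Exist
import Cfsg.Agent.Lib.Helper32.OPG.Main
import Cfsg.Agent.Lib.Helper42.OPG.RedX
import Cfsg.Agent.Lib.Helper42.OPG.RedY
import Cfsg.Agent.Lib.Helper15.OMG.KillZ

/-!
# Project OMG (S2415), package [LINEM]

A subgroup `K` of the isometry group of the minus form containing the long root groups `X, Y, Z`
of the hyperbolic part and all short root elements contains every Siegel transformation.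
(The minus twin of the OPG package [LINE].)
-/

set_option autoImplicit false
open scoped Matrix MatrixGroups

namespace Cfsg.Agent.Lib.Helper62.OMG

open Cfsg.Agent.Lib.Helper31.Siegel Cfsg.Agent.Lib.Helper32.OPG Cfsg.Agent.Lib.Helper64.OParM
open Cfsg.Agent.Lib.Helper23.OHyp Cfsg.Agent.Lib.Helper94.OMG

universe u

section

variable {k : ℕ} {F : Type u} [Field F] {a b : F}

theorem lm_BM_add_left (x y z : MI k → F) :
    BM k a b (x + y) z = BM k a b x z + BM k a b y z := by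
  show QuadraticMap.polar (Cfsg.quadFormMinus k F a b) (x + y) z =
    QuadraticMap.polar (Cfsg.quadFormMinus k F a b) x z +
      QuadraticMap.polar (Cfsg.quadFormMinus k F a b) y z
  rw [← Cfsg.Agent.Lib.Helper14.minusQF_coe]
  exact QuadraticMap.polar_add_left (Cfsg.Agent.Lib.Helper14.minusQF k F a b) x y z

theorem lm_BM_smul_left (c : F) (x z : MI k → F) :
    BM k a b (c • x) z = c * BM k a b x z := by
  show QuadraticMap.polar (Cfsg.quadFormMinus k F a b) (c • x) z =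
    c * QuadraticMap.polar (Cfsg.quadFormMinus k F a b) x z
  rw [← Cfsg.Agent.Lib.Helper14.minusQF_coe]
  exact QuadraticMap.polar_smul_left (Cfsg.Agent.Lib.Helper14.minusQF k F a b) c x z

theorem lm_BM_zero_left (z : MI k → F) : BM k a b (0 : MI k → F) z = 0 := by
  have h := lm_BM_smul_left (a := a) (b := b) (0 : F) (0 : MI k → F) z
  rw [zero_smul, zero_mul] at h
  exact h

theorem lm_BM_comm (x z : MI k → F) : BM k a b x z = BM k a b z x :=
  QuadraticMap.polar_comm _ x z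

theorem lm_BM_eM (i : Fin k) (x : MI k → F) :
    BM k a b (eM i) x = x (Sum.inl (Sum.inr i)) :=
  Cfsg.Agent.Lib.Helper14.minus_polar_inl k F a b i x

theorem lm_BM_fM (i : Fin k) (x : MI k → F) :
    BM k a b (fM i) x = x (Sum.inl (Sum.inl i)) :=
  Cfsg.Agent.Lib.Helper14.minus_polar_inr k F a b i x

theorem lm_emb_of (w : MI k → F) (hz : ∀ t : Fin 2, w (Sum.inr t) = 0) :
    w = emb (w ∘ Sum.inl) := by
  funext s
  rcases s with j | t
  · rfl
  · rw [hz t]; rfl

theorem lm_Em_emb (σ : ↥(Iso k F)) (p : Vec k F) :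
    matM (Em k F a b σ) *ᵥ emb p = emb (mat σ *ᵥ p) := by
  rw [matM_Em]
  funext s
  rcases s with j | t <;> rfl

theorem lm_QM_emb (p : Vec k F) : QM k a b (emb p) = QF k F p := by
  show Cfsg.quadFormMinus k F a b (Sum.elim p 0) = _
  rw [Cfsg.Agent.Lib.Helper13.OElm.quadFormMinus_elim]
  simp

theorem lm_emb_injective {p q : Vec k F} (h : emb p = (emb q : MI k → F)) : p = q := by
  funext j
  exact congrFun h (Sum.inl j)

theorem lm_emb_add (p q : Vec k F) : (emb (p + q) : MI k → F) = emb p + emb q := by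
  funext s
  rcases s with j | t
  · rfl
  · simp [emb]

theorem lm_emb_smul (c : F) (p : Vec k F) : (emb (c • p) : MI k → F) = c • emb p := by
  funext s
  rcases s with j | t
  · rfl
  · simp [emb]

/-- a singular vector with vanishing hyperbolic part is zero. -/
theorem lm_eq_zero_of_plane (hab : Aniso a b) (w : MI k → F) (hw : QM k a b w = 0)
    (h0 : ∀ j : Fin k ⊕ Fin k, w (Sum.inl j) = 0) : ∀ t : Fin 2, w (Sum.inr t) = 0 := by
  have h1 : QM k a b w = (∑ i : Fin k, w (Sum.inl (Sum.inl i)) * w (Sum.inl (Sum.inr i))) +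
      (w (Sum.inr 0) ^ 2 + a * w (Sum.inr 0) * w (Sum.inr 1) + b * w (Sum.inr 1) ^ 2) := rfl
  rw [h1, Finset.sum_eq_zero (fun i _ => by rw [h0, zero_mul]), zero_add] at hw
  obtain ⟨e0, e1⟩ := hab _ _ hw
  intro t
  fin_cases t
  · exact e0
  · exact e1

/-- the stabiliser of a vector in the isometry group of the minus form. -/
def lmStab (a b : F) (e : MI k → F) : Subgroup ↥(GM k F a b) where
  carrier := {g | matM g *ᵥ e = e}
  mul_mem' := by
    intro x y hx hy
    show matM (x * y) *ᵥ e = e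
    rw [mulM_act, show matM y *ᵥ e = e from hy, show matM x *ᵥ e = e from hx]
  one_mem' := oneM_act e
  inv_mem' := by
    intro x hx
    show matM x⁻¹ *ᵥ e = e
    have h := invM_act x e
    rw [show matM x *ᵥ e = e from hx] at h
    exact h

theorem lm_isSieg_conj {u v : MI k → F} {c : F} {σ : ↥(GM k F a b)} (h : IsSieg a b u v c σ)
    (g : ↥(GM k F a b)) : IsSieg a b (matM g *ᵥ u) (matM g *ᵥ v) c (g * σ * g⁻¹) := by
  intro x
  have h1 : BM k a b u (matM g⁻¹ *ᵥ x) = BM k a b (matM g *ᵥ u) x := by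
    have := BM_act g u (matM g⁻¹ *ᵥ x)
    rw [actM_inv] at this
    exact this.symm
  have h2 : BM k a b v (matM g⁻¹ *ᵥ x) = BM k a b (matM g *ᵥ v) x := by
    have := BM_act g v (matM g⁻¹ *ᵥ x)
    rw [actM_inv] at this
    exact this.symm
  rw [mulM_act, mulM_act, h (matM g⁻¹ *ᵥ x), Matrix.mulVec_sub, Matrix.mulVec_add,
    Matrix.mulVec_smul, Matrix.mulVec_smul, actM_inv, h1, h2]

theorem lm_transport {K : Subgroup ↥(GM k F a b)} {σ g : ↥(GM k F a b)} (hg : g ∈ K)
    (h : g * σ * g⁻¹ ∈ K) : σ ∈ K := by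
  have h3 : σ = g⁻¹ * (g * σ * g⁻¹) * g := by group
  rw [h3]
  exact K.mul_mem (K.mul_mem (K.inv_mem hg) h) hg

/-- a Siegel transformation with dependent vectors is trivial. -/
theorem lm_isSieg_smul_eq_one {e : MI k → F} {α c : F} {σ : ↥(GM k F a b)}
    (h : IsSieg a b e (α • e) c σ) : σ = 1 := by
  apply extM_act
  intro x
  rw [h x, oneM_act, lm_BM_smul_left]
  module

end

/-- **[LINEM]** from [KILLZ] and the row reduction package of OPG. -/
theorem pkgLineM_of' (hKillZ : Cfsg.Agent.Lib.Helper94.OMG.PkgKillZ.{u})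
    (hRed : Cfsg.Agent.Lib.Helper32.OPG.PkgRed.{u}) :
    Cfsg.Agent.Lib.Helper94.OMG.PkgLineM.{u} := by
  intro F _ _ k a b hab hk K hX hY hZ hS u v c hQu hQv hBuv σ hσ
  let i0 : Fin k := ⟨0, by omega⟩
  let i1 : Fin k := ⟨1, by omega⟩
  let i2 : Fin k := ⟨2, by omega⟩
  have h01 : i0 ≠ i1 := by
    intro h; have := congrArg Fin.val h; simp [i0, i1] at this
  have h10 : i1 ≠ i0 := Ne.symm h01
  have h20 : i2 ≠ i0 := by
    intro h; have := congrArg Fin.val h; simp [i0, i2] at this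
  have h12 : i1 ≠ i2 := by
    intro h; have := congrArg Fin.val h; simp [i1, i2] at this
  -- the case `u = 0`
  by_cases hu0 : u = 0
  · have : σ = 1 := by
      apply extM_act
      intro x
      rw [hσ x, oneM_act, hu0, lm_BM_zero_left]
      simp
    rw [this]
    exact K.one_mem
  -- step 1: kill the plane part of `u`
  have hex : ∃ i ∈ (Set.univ : Set (Fin k)),
      u (Sum.inl (Sum.inl i)) ≠ 0 ∨ u (Sum.inl (Sum.inr i)) ≠ 0 := by
    by_contra hcon
    push Not at hcon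
    have h0 : ∀ j : Fin k ⊕ Fin k, u (Sum.inl j) = 0 := by
      intro j
      rcases j with i | i
      · exact (hcon i (Set.mem_univ _)).1
      · exact (hcon i (Set.mem_univ _)).2
    have hz := lm_eq_zero_of_plane hab u hQu h0
    apply hu0
    funext s
    rcases s with j | t
    · exact h0 j
    · exact hz t
  obtain ⟨g₁, hg₁K, hg₁z, -⟩ := hKillZ F k a b hab Set.univ K
    (fun i _ w hw τ hτ => hS i w hw τ hτ) u hex
  obtain ⟨p, hp⟩ : ∃ p : Vec k F, p = (matM g₁ *ᵥ u) ∘ Sum.inl := ⟨_, rfl⟩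
  have hu₁ : matM g₁ *ᵥ u = emb p := by rw [hp]; exact lm_emb_of _ hg₁z
  have hp0 : p ≠ 0 := by
    intro h0
    apply hu0
    have h1 := invM_act g₁ u
    rw [hu₁, h0] at h1
    rw [← h1]
    have : (emb (0 : Vec k F) : MI k → F) = 0 := by
      funext s
      rcases s with j | t <;> rfl
    rw [this, Matrix.mulVec_zero]
  have hQp : QF k F p = 0 := by
    rw [← lm_QM_emb (a := a) (b := b), ← hu₁, QM_act, hQu]
  obtain ⟨g₂', hg₂'K, hg₂'⟩ := hRed k F Set.univ i0 i1 (Set.mem_univ _) (Set.mem_univ _) h01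
    (K.comap (Em k F a b)) hX hY hZ p hp0 hQp (fun i hi => absurd (Set.mem_univ i) hi)
  have hg₂K : Em k F a b g₂' ∈ K := Subgroup.mem_comap.mp hg₂'K
  have hgu : matM (Em k F a b g₂' * g₁) *ᵥ u = eM i0 := by
    rw [mulM_act, hu₁, lm_Em_emb, hg₂', emb_E]
  have hgK : Em k F a b g₂' * g₁ ∈ K := K.mul_mem hg₂K hg₁K
  apply lm_transport hgK
  have hσ₁ := lm_isSieg_conj hσ (Em k F a b g₂' * g₁)
  rw [hgu] at hσ₁
  have hQv₁ : QM k a b (matM (Em k F a b g₂' * g₁) *ᵥ v) = 0 := by rw [QM_act, hQv]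
  have hBv₁ : BM k a b (eM i0) (matM (Em k F a b g₂' * g₁) *ᵥ v) = 0 := by
    rw [← hgu, BM_act, hBuv]
  generalize matM (Em k F a b g₂' * g₁) *ᵥ v = v₁ at hσ₁ hQv₁ hBv₁
  generalize Em k F a b g₂' * g₁ * σ * (Em k F a b g₂' * g₁)⁻¹ = σ₁ at hσ₁ ⊢
  have hy0 : v₁ (Sum.inl (Sum.inr i0)) = 0 := by rw [← lm_BM_eM (a := a) (b := b) i0 v₁]; exact hBv₁
  obtain ⟨α, hα⟩ : ∃ α : F, α = v₁ (Sum.inl (Sum.inl i0)) := ⟨_, rfl⟩
  -- step 2: is `v₁` a multiple of `e_0`?
  by_cases hex2 : ∃ i ∈ ({i | i ≠ i0} : Set (Fin k)),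
      v₁ (Sum.inl (Sum.inl i)) ≠ 0 ∨ v₁ (Sum.inl (Sum.inr i)) ≠ 0
  swap
  · push Not at hex2
    have hv₁ : v₁ = α • (eM i0 : MI k → F) := by
      have hz : ∀ t : Fin 2, v₁ (Sum.inr t) = 0 := by
        -- the singular vector `v₁ - α e_0` has vanishing hyperbolic part
        have hw : QM k a b (v₁ - α • (eM i0 : MI k → F)) = 0 := by
          have h1 : ∀ w : MI k → F, QM k a b w =
              (∑ i : Fin k, w (Sum.inl (Sum.inl i)) * w (Sum.inl (Sum.inr i))) +
              (w (Sum.inr 0) ^ 2 + a * w (Sum.inr 0) * w (Sum.inr 1) + b * w (Sum.inr 1) ^ 2) :=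
            fun w => rfl
          rw [h1] at hQv₁ ⊢
          rw [← hQv₁]
          congr 1
          · apply Finset.sum_congr rfl
            intro i _
            by_cases hi : i = i0
            · subst hi
              simp [hy0]
            · simp [hi]
          · simp
        have h0 : ∀ j : Fin k ⊕ Fin k, (v₁ - α • (eM i0 : MI k → F)) (Sum.inl j) = 0 := by
          intro j
          rcases j with i | i
          · by_cases hi : i = i0
            · subst hi
              simp [hα]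
            · simp [hi, Ne.symm hi, (hex2 i hi).1]
          · by_cases hi : i = i0
            · subst hi
              simp [hy0]
            · simp [(hex2 i hi).2]
        have hz := lm_eq_zero_of_plane hab _ hw h0
        intro t
        have := hz t
        simpa using this
      funext s
      rcases s with (i | i) | t
      · by_cases hi : i = i0
        · subst hi
          simp [hα]
        · simp [hi, Ne.symm hi, (hex2 i hi).1]
      · by_cases hi : i = i0
        · subst hi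
          simp [hy0]
        · simp [(hex2 i hi).2]
      · simp [hz t]
    rw [hv₁] at hσ₁
    rw [lm_isSieg_smul_eq_one hσ₁]
    exact K.one_mem
  -- step 3: reduce `v₁` inside the stabiliser of `e_0`
  have hS' : ∀ i : Fin k, i ∈ ({i | i ≠ i0} : Set (Fin k)) → ∀ w : MI k → F, IsZ w →
      ∀ τ : ↥(GM k F a b), (IsEich a b (eM i) w τ ∨ IsEich a b (fM i) w τ) →
      τ ∈ K ⊓ lmStab a b (eM i0 : MI k → F) := by
    intro i hi w hw τ hτ
    refine Subgroup.mem_inf.mpr ⟨hS i w hw τ hτ, ?_⟩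
    show matM τ *ᵥ (eM i0 : MI k → F) = eM i0
    have hw0 : BM k a b w (eM i0) = 0 := by
      rw [lm_BM_comm, lm_BM_eM]
      exact hw _
    rcases hτ with hτ | hτ
    · rw [hτ, hw0, lm_BM_eM]
      simp
    · rw [hτ, hw0, lm_BM_fM]
      have : (eM i0 : MI k → F) (Sum.inl (Sum.inl i)) = 0 := by
        simp [Ne.symm hi]
      rw [this]
      simp
  obtain ⟨g₃, hg₃KS, hg₃z, hg₃c⟩ := hKillZ F k a b hab ({i | i ≠ i0} : Set (Fin k))
    (K ⊓ lmStab a b (eM i0 : MI k → F)) hS' v₁ hex2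
  have hg₃K : g₃ ∈ K := (Subgroup.mem_inf.mp hg₃KS).1
  have hg₃e : matM g₃ *ᵥ (eM i0 : MI k → F) = eM i0 := (Subgroup.mem_inf.mp hg₃KS).2
  have hc0 := hg₃c i0 (fun h => h rfl)
  obtain ⟨q, hq⟩ : ∃ q : Vec k F, q = (matM g₃ *ᵥ v₁) ∘ Sum.inl := ⟨_, rfl⟩
  have hv₂ : matM g₃ *ᵥ v₁ = emb q := by rw [hq]; exact lm_emb_of _ hg₃z
  have hqx : q (Sum.inl i0) = α := by rw [hq, hα]; exact hc0.1
  have hqy : q (Sum.inr i0) = 0 := by rw [hq, ← hy0]; exact hc0.2
  have hQq : QF k F q = 0 := by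
    rw [← lm_QM_emb (a := a) (b := b), ← hv₂, QM_act, hQv₁]
  obtain ⟨q₂, hq₂⟩ : ∃ q₂ : Vec k F, q₂ = q - α • (E i0 : Vec k F) := ⟨_, rfl⟩
  have hq₂0 : q₂ ≠ 0 := by
    intro h0
    have hqe : q = α • (E i0 : Vec k F) := by
      have : q = q₂ + α • (E i0 : Vec k F) := by rw [hq₂]; module
      rw [this, h0, zero_add]
    have h1 := invM_act g₃ v₁
    rw [hv₂, hqe, lm_emb_smul, emb_E, Matrix.mulVec_smul] at h1
    have h2 : matM g₃⁻¹ *ᵥ (eM i0 : MI k → F) = eM i0 := by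
      have := invM_act g₃ (eM i0 : MI k → F)
      rw [hg₃e] at this
      exact this
    rw [h2] at h1
    obtain ⟨i, hi, hne⟩ := hex2
    rw [← h1] at hne
    rcases hne with hne | hne
    · apply hne
      simp [hi, Ne.symm hi]
    · apply hne
      simp
  have hQq₂ : QF k F q₂ = 0 := by
    rw [hq₂, Q_sub, Q_smul, B_smul_right, B_E, hqy, hQq, Q_E]
    ring
  have hsupp : ∀ i, i ∉ ({i | i ≠ i0} : Set (Fin k)) →
      q₂ (Sum.inl i) = 0 ∧ q₂ (Sum.inr i) = 0 := by
    intro i hi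
    have hi' : i = i0 := by
      by_contra hne
      exact hi hne
    subst hi'
    constructor
    · rw [hq₂]
      simp [hqx]
    · rw [hq₂]
      simp [hqy]
  -- the long root groups with indices `≠ 0` fix `e_0`
  have hfix : ∀ τ : ↥(Iso k F), mat τ *ᵥ (E i0 : Vec k F) = E i0 →
      Em k F a b τ ∈ lmStab a b (eM i0 : MI k → F) := by
    intro τ hτ
    show matM (Em k F a b τ) *ᵥ (eM i0 : MI k → F) = eM i0
    rw [← emb_E, lm_Em_emb, hτ]
  have hX' : HasX ({i | i ≠ i0} : Set (Fin k))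
      ((K ⊓ lmStab a b (eM i0 : MI k → F)).comap (Em k F a b)) := by
    intro i j hi hj hij c' τ hτ
    refine Subgroup.mem_comap.mpr (Subgroup.mem_inf.mpr
      ⟨Subgroup.mem_comap.mp (hX i j (Set.mem_univ _) (Set.mem_univ _) hij c' τ hτ), ?_⟩)
    apply hfix
    rw [hτ, B_E_Fv, if_neg (Ne.symm hj), B_E_E]
    simp
  have hY' : HasY ({i | i ≠ i0} : Set (Fin k))
      ((K ⊓ lmStab a b (eM i0 : MI k → F)).comap (Em k F a b)) := by
    intro i j hi hj hij c' τ hτ
    refine Subgroup.mem_comap.mpr (Subgroup.mem_inf.mpr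
      ⟨Subgroup.mem_comap.mp (hY i j (Set.mem_univ _) (Set.mem_univ _) hij c' τ hτ), ?_⟩)
    apply hfix
    rw [hτ, B_E_E, B_E_E]
    simp
  have hZ' : HasZ ({i | i ≠ i0} : Set (Fin k))
      ((K ⊓ lmStab a b (eM i0 : MI k → F)).comap (Em k F a b)) := by
    intro i j hi hj hij c' τ hτ
    refine Subgroup.mem_comap.mpr (Subgroup.mem_inf.mpr
      ⟨Subgroup.mem_comap.mp (hZ i j (Set.mem_univ _) (Set.mem_univ _) hij c' τ hτ), ?_⟩)
    apply hfix
    rw [hτ, B_E_Fv, if_neg (Ne.symm hj), B_E_Fv, if_neg (Ne.symm hi)]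
    simp
  obtain ⟨g₄', hg₄'KS, hg₄'⟩ := hRed k F ({i | i ≠ i0} : Set (Fin k)) i1 i2 h10 h20 h12
    ((K ⊓ lmStab a b (eM i0 : MI k → F)).comap (Em k F a b)) hX' hY' hZ' q₂ hq₂0 hQq₂ hsupp
  have hg₄KS := Subgroup.mem_comap.mp hg₄'KS
  have hg₄K : Em k F a b g₄' ∈ K := (Subgroup.mem_inf.mp hg₄KS).1
  have hg₄e : matM (Em k F a b g₄') *ᵥ (eM i0 : MI k → F) = eM i0 :=
    (Subgroup.mem_inf.mp hg₄KS).2
  have hg₄E : mat g₄' *ᵥ (E i0 : Vec k F) = E i0 := by
    rw [← emb_E, lm_Em_emb, emb_E, ← emb_E] at hg₄e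
    exact lm_emb_injective hg₄e
  have hg₄q : mat g₄' *ᵥ q = (E i1 : Vec k F) + α • (E i0 : Vec k F) := by
    have : q = q₂ + α • (E i0 : Vec k F) := by rw [hq₂]; module
    rw [this, Matrix.mulVec_add, Matrix.mulVec_smul, hg₄', hg₄E]
  -- conjugate by `g₄ g₃`
  have hgK' : Em k F a b g₄' * g₃ ∈ K := K.mul_mem hg₄K hg₃K
  apply lm_transport hgK'
  have hσ₂ := lm_isSieg_conj hσ₁ (Em k F a b g₄' * g₃)
  have e1 : matM (Em k F a b g₄' * g₃) *ᵥ (eM i0 : MI k → F) = eM i0 := by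
    rw [mulM_act, hg₃e, hg₄e]
  have e2 : matM (Em k F a b g₄' * g₃) *ᵥ v₁ = (eM i1 : MI k → F) + α • (eM i0 : MI k → F) := by
    rw [mulM_act, hv₂, lm_Em_emb, hg₄q, lm_emb_add, lm_emb_smul, emb_E, emb_E]
  rw [e1, e2] at hσ₂
  generalize Em k F a b g₄' * g₃ * σ₁ * (Em k F a b g₄' * g₃)⁻¹ = σ₂ at hσ₂ ⊢
  -- `σ₂` is the image of the long root element `Y_{10}(c)`
  obtain ⟨τ, hτ⟩ := Cfsg.Agent.Lib.Helper76.Siegel.pkgExist k F (E i1) (E i0)
    (isSingLine_E_E h10) c
  have hτK : Em k F a b τ ∈ K :=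
    Subgroup.mem_comap.mp (hY i1 i0 (Set.mem_univ _) (Set.mem_univ _) h10 c τ hτ)
  have : σ₂ = Em k F a b τ := by
    apply extM_act
    intro x
    rw [hσ₂ x, matM_Em, hτ, lm_BM_add_left, lm_BM_smul_left, lm_BM_eM, lm_BM_eM, B_E, B_E]
    funext s
    rcases s with j | t
    · show x (Sum.inl j) + ((c * x (Sum.inl (Sum.inr i0))) •
          ((eM i1 : MI k → F) + α • (eM i0 : MI k → F))) (Sum.inl j) -
          ((c * (x (Sum.inl (Sum.inr i1)) + α * x (Sum.inl (Sum.inr i0)))) •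
            (eM i0 : MI k → F)) (Sum.inl j) =
        x (Sum.inl j) + ((c * x (Sum.inl (Sum.inr i0))) • (E i1 : Vec k F)) j -
          ((c * x (Sum.inl (Sum.inr i1))) • (E i0 : Vec k F)) j
      have ha : ∀ i : Fin k, (eM i : MI k → F) (Sum.inl j) = (E i : Vec k F) j := by
        intro i
        rw [← emb_E]
        rfl
      simp only [Pi.add_apply, Pi.smul_apply, smul_eq_mul, ha]
      ring
    · show x (Sum.inr t) + ((c * x (Sum.inl (Sum.inr i0))) •
          ((eM i1 : MI k → F) + α • (eM i0 : MI k → F))) (Sum.inr t) -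
          ((c * (x (Sum.inl (Sum.inr i1)) + α * x (Sum.inl (Sum.inr i0)))) •
            (eM i0 : MI k → F)) (Sum.inr t) = x (Sum.inr t)
      simp
  rw [this]
  exact hτK

/-- **[LINEM]** from [KILLZ] (the row reduction of OPG is landed). -/
theorem pkgLineM_of (hKillZ : Cfsg.Agent.Lib.Helper94.OMG.PkgKillZ.{u}) :
    Cfsg.Agent.Lib.Helper94.OMG.PkgLineM.{u} :=
  pkgLineM_of' hKillZ (Cfsg.Agent.Lib.Helper32.OPG.pkgRed_of
    Cfsg.Agent.Lib.Helper42.OPG.pkgRedX Cfsg.Agent.Lib.Helper42.OPG.pkgRedY)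

/-- **[LINEM]**, unconditional (with helper15's landed [KILLZ]). -/
theorem pkgLineM : Cfsg.Agent.Lib.Helper94.OMG.PkgLineM.{u} :=
  pkgLineM_of Cfsg.Agent.Lib.Helper15.OMG.pkgKillZ

end Cfsg.Agent.Lib.Helper62.OMG
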